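import Cfsg.Agent.Lib.Helper91.R3.Defs

set_option autoImplicit false

namespace Cfsg.Agent.Lib.Helper91.R3

open scoped commutatorElement

variable {G : Type*} [Group G]

theorem A_split (D : Dat G) (t u v : ZMod 3) :
    D.U t u v = D.U t 0 0 * (D.U 0 u 0 * D.U 0 0 v) := by
  rw [D.U_mul, D.U_mul]
  congr 1 <;> ring

theorem A_cases (x : ZMod 3) : x = 0 ∨ x = 1 ∨ x = -1 := by
  revert x; decide

theorem A_ar1 : ((-1 : ZMod 3) + -1 = 1) ∧ ((0 : ZMod 3) + (-0 - 1 * 1) - -1 * -1 = 1) ∧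
    ((-0 : ZMod 3) + (-0 - 0 * 1 - 2 * 1 ^ 2 * 1) - 0 * -1 + -1 * -1 * -1 - (-1) ^ 2 * -1 = 1) := by
  decide

theorem sup_top (D : Dat G) : commutator G ⊔ Subgroup.zpowers (D.U 0 1 0) = ⊤ := by
  set S : Subgroup G := commutator G ⊔ Subgroup.zpowers (D.U 0 1 0) with hS
  have hcS : commutator G ≤ S := le_sup_left
  have hSn : S.Normal := by
    refine ⟨fun x hx g => ?_⟩
    have h1 : g * x * g⁻¹ = ⁅g, x⁆ * x := by rw [commutatorElement_def]; group
    rw [h1]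
    exact S.mul_mem (hcS (Subgroup.commutator_mem_commutator (Subgroup.mem_top g)
      (Subgroup.mem_top x))) hx
  have hcomm : ∀ x y : G, x * y * x⁻¹ * y⁻¹ ∈ S := by
    intro x y
    rw [← commutatorElement_def]
    exact hcS (Subgroup.commutator_mem_commutator (Subgroup.mem_top x) (Subgroup.mem_top y))
  have hb : D.U 0 1 0 ∈ S :=
    (le_sup_right : Subgroup.zpowers (D.U 0 1 0) ≤ S) (Subgroup.mem_zpowers _)
  -- c = [a, b]
  have hc : D.U 0 0 1 ∈ S := by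
    have h1 := hcomm (D.U 1 0 0) (D.U 0 1 0)
    have h2 : D.U 1 0 0 * D.U 0 1 0 * (D.U 1 0 0)⁻¹ * (D.U 0 1 0)⁻¹ = D.U 0 0 1 := by
      rw [D.U_inv, D.U_inv, D.U_mul, D.U_mul, D.U_mul]
      congr 1 <;> decide
    rwa [h2] at h1
  have h111 : D.U 1 1 1 ∈ S := by
    have h1 := hcomm D.h (D.U 1 0 0)
    have h2 : D.h * D.U 1 0 0 * D.h⁻¹ * (D.U 1 0 0)⁻¹ = D.U 1 1 1 := by
      rw [D.h_conj, D.U_inv, D.U_mul]
      congr 1 <;> decide
    rwa [h2] at h1
  have ha : D.U 1 0 0 ∈ S := by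
    have h1 := A_split D 1 1 1
    have h2 : D.U 1 0 0 = D.U 1 1 1 * (D.U 0 1 0 * D.U 0 0 1)⁻¹ := by
      rw [h1]; group
    rw [h2]
    exact S.mul_mem h111 (S.inv_mem (S.mul_mem hb hc))
  have ha' : D.U (-1) 0 0 ∈ S := by
    have h1 := hSn.conj_mem _ ha D.h
    rw [D.h_conj] at h1
    simpa using h1
  have hb' : D.U 0 (-1) 0 ∈ S := by
    have h1 := S.inv_mem hb
    rw [D.U_inv] at h1
    have e : D.U (-0) (-1 - 0 * 0) (-0 - 1 * 0 - 2 * 0 ^ 2 * 0) = D.U 0 (-1) 0 := by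
      congr 1 <;> decide
    rwa [e] at h1
  have hc' : D.U 0 0 (-1) ∈ S := by
    have h1 := S.inv_mem hc
    rw [D.U_inv] at h1
    have e : D.U (-0) (-0 - 0 * 0) (-1 - 0 * 0 - 2 * 0 ^ 2 * 0) = D.U 0 0 (-1) := by
      congr 1 <;> decide
    rwa [e] at h1
  have h0 : D.U 0 0 0 ∈ S := by rw [D.U_zero]; exact S.one_mem
  apply D.gen S hSn
  intro t u v
  rw [A_split]
  refine S.mul_mem ?_ (S.mul_mem ?_ ?_)
  · rcases A_cases t with rfl | rfl | rfl
    · exact h0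
    · exact ha
    · exact ha'
  · rcases A_cases u with rfl | rfl | rfl
    · exact h0
    · exact hb
    · exact hb'
  · rcases A_cases v with rfl | rfl | rfl
    · exact h0
    · exact hc
    · exact hc'

end Cfsg.Agent.Lib.Helper91.R3
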