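import Cfsg.Agent.Lib.Helper91.R3.Defs

set_option autoImplicit false

namespace Cfsg.Agent.Lib.Helper91.R3

variable {G : Type*} [Group G]

/-- `g = U t u v` with `u - t ^ 2 = s` -/
def B_L (D : Dat G) (g : G) (s : ZMod 3) : Prop := ∃ t u v, g = D.U t u v ∧ u - t ^ 2 = s

theorem B_three : (3 : ZMod 3) = 0 := by decide

theorem B_ne : ¬ ((0 : ZMod 3) = 1 - 0 ^ 2) := by decide

theorem B_L_mul (D : Dat G) {g g' : G} {s s' : ZMod 3} (h : B_L D g s) (h' : B_L D g' s') :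
    B_L D (g * g') (s + s') := by
  obtain ⟨t, u, v, rfl, rfl⟩ := h
  obtain ⟨t', u', v', rfl, rfl⟩ := h'
  refine ⟨_, _, _, D.U_mul _ _ _ _ _ _, ?_⟩
  linear_combination (-(t * t')) * B_three

theorem B_L_inv (D : Dat G) {g : G} {s : ZMod 3} (h : B_L D g s) : B_L D g⁻¹ (-s) := by
  obtain ⟨t, u, v, rfl, rfl⟩ := h
  refine ⟨_, _, _, D.U_inv _ _ _, ?_⟩
  linear_combination (-(t ^ 2)) * B_three

theorem B_L_h (D : Dat G) {g : G} {s : ZMod 3} (h : B_L D g s) : B_L D (D.h * g * D.h⁻¹) s := by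
  obtain ⟨t, u, v, rfl, rfl⟩ := h
  refine ⟨_, _, _, D.h_conj _ _ _, ?_⟩
  ring

theorem B_L_unique (D : Dat G) {g : G} {s s' : ZMod 3} (h : B_L D g s) (h' : B_L D g s') :
    s = s' := by
  obtain ⟨t, u, v, rfl, rfl⟩ := h
  obtain ⟨t', u', v', he, rfl⟩ := h'
  obtain ⟨h1, h2, _⟩ := D.U_inj _ _ _ _ _ _ he
  rw [h1, h2]

theorem B_L_U (D : Dat G) (t u v : ZMod 3) : B_L D (D.U t u v) (u - t ^ 2) := ⟨t, u, v, rfl, rfl⟩

theorem B_L_conjU (D : Dat G) {g : G} {s : ZMod 3} (h : B_L D g s) (a b c : ZMod 3) :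
    B_L D (D.U a b c * g * (D.U a b c)⁻¹) s := by
  have h1 := B_L_mul D (B_L_mul D (B_L_U D a b c) h) (B_L_inv D (B_L_U D a b c))
  have h2 : b - a ^ 2 + s + -(b - a ^ 2) = s := by ring
  rwa [h2] at h1

/-- the kernel of the invariant homomorphism -/
def B_F (D : Dat G) : Subgroup G where
  carrier := {g | B_L D g 0}
  mul_mem' := by
    intro a b ha hb
    have := B_L_mul D ha hb
    rwa [add_zero] at this
  one_mem' := ⟨0, 0, 0, D.U_zero.symm, by ring⟩
  inv_mem' := by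
    intro a ha
    have := B_L_inv D ha
    rwa [neg_zero] at this

theorem B_card_Us (D : Dat G) : Nat.card D.Us = 27 := by
  have e : (ZMod 3 × ZMod 3 × ZMod 3) ≃ D.Us :=
    Equiv.ofBijective (fun x => ⟨D.U x.1 x.2.1 x.2.2, D.U_mem _ _ _⟩) (by
      constructor
      · rintro ⟨t, u, v⟩ ⟨t', u', v'⟩ h
        obtain ⟨h1, h2, h3⟩ := D.U_inj _ _ _ _ _ _ (congrArg Subtype.val h)
        simp only at h1 h2 h3
        rw [h1, h2, h3]
      · rintro ⟨_, t, u, v, rfl⟩
        exact ⟨(t, u, v), rfl⟩)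
  rw [← Nat.card_congr e]
  simp

theorem not_mem_comm (D : Dat G) : D.U 0 1 0 ∉ commutator G := by
  intro hb
  have := D.finite
  have := Fact.mk Nat.prime_three
  have hcard := B_card_Us D
  have hidx : ¬ 3 ∣ D.Us.index := by
    have h1 := D.Us.card_mul_index
    rw [hcard, D.card] at h1
    have h2 : D.Us.index = 56 := by omega
    rw [h2]; norm_num
  have hpg : IsPGroup 3 D.Us := IsPGroup.of_card (n := 3) (by rw [hcard]; norm_num)
  let P : Sylow 3 G := hpg.toSylow hidx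
  have hP : (P : Subgroup G) = D.Us := rfl
  have hfoc := Subgroup.commutator_inf_eq_focalSubgroup P
  have hle : (P : Subgroup G).focalSubgroup ≤ B_F D := by
    rw [Subgroup.focalSubgroup_def, Subgroup.closure_le]
    rintro g ⟨hg, x, hx, k, rfl⟩
    rw [hP] at hg hx
    obtain ⟨t, u, v, rfl⟩ := hx
    rw [commutatorElement_def] at hg ⊢
    by_cases hx1 : D.U t u v = 1
    · rw [hx1]
      have : (1 : G) * k * 1⁻¹ * k⁻¹ = 1 := by group
      rw [this]
      exact (B_F D).one_mem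
    · have hy : k * (D.U t u v)⁻¹ * k⁻¹ ∈ D.Us := by
        have h1 := D.Us.mul_mem (D.Us.inv_mem (D.U_mem t u v)) hg
        have h2 : (D.U t u v)⁻¹ * (D.U t u v * k * (D.U t u v)⁻¹ * k⁻¹) =
            k * (D.U t u v)⁻¹ * k⁻¹ := by group
        rwa [h2] at h1
      obtain ⟨t', u', v', hy'⟩ := hy
      have hLx := B_L_U D t u v
      have hLxi := B_L_inv D hLx
      have hne : (D.U t u v)⁻¹ ≠ 1 := by simpa using hx1
      rw [D.U_inv] at hy' hne
      obtain ⟨a, b, c, hk | hk⟩ := D.ti k _ _ _ _ _ _ hy' hne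
      · have h1 := B_L_conjU D hLxi a b c
        rw [← hk] at h1
        have h2 := B_L_mul D hLx h1
        rw [add_neg_cancel] at h2
        have h3 : D.U t u v * (k * (D.U t u v)⁻¹ * k⁻¹) = D.U t u v * k * (D.U t u v)⁻¹ * k⁻¹ := by
          group
        rw [h3] at h2
        exact h2
      · have h1 := B_L_conjU D (B_L_h D hLxi) a b c
        have h0 : D.U a b c * (D.h * (D.U t u v)⁻¹ * D.h⁻¹) * (D.U a b c)⁻¹ =
            k * (D.U t u v)⁻¹ * k⁻¹ := by
          rw [hk]; group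
        rw [h0] at h1
        have h2 := B_L_mul D hLx h1
        rw [add_neg_cancel] at h2
        have h3 : D.U t u v * (k * (D.U t u v)⁻¹ * k⁻¹) = D.U t u v * k * (D.U t u v)⁻¹ * k⁻¹ := by
          group
        rw [h3] at h2
        exact h2
  have hmem : D.U 0 1 0 ∈ commutator G ⊓ (P : Subgroup G) := ⟨hb, D.U_mem 0 1 0⟩
  rw [hfoc] at hmem
  have h1 : B_L D (D.U 0 1 0) 0 := hle hmem
  have h2 := B_L_unique D h1 (B_L_U D 0 1 0)
  exact B_ne h2

end Cfsg.Agent.Lib.Helper91.R3
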