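import Cfsg.Agent.Lib.Helper91.R3.Defs
import Cfsg.Agent.Lib.Helper91.R3.B

set_option autoImplicit false

namespace Cfsg.Agent.Lib.Helper91.R3

variable {G : Type*} [Group G]

theorem C1_conj_Us (D : Dat G) {β x : G} (hβ : β ∈ D.Bs) (hx : x ∈ D.Us) :
    β * x * β⁻¹ ∈ D.Us := by
  obtain ⟨a, b, c, rfl | rfl⟩ := hβ
  · exact D.Us.mul_mem (D.Us.mul_mem (D.U_mem _ _ _) hx) (D.Us.inv_mem (D.U_mem _ _ _))
  · obtain ⟨t, u, v, rfl⟩ := hx
    have h1 : D.U a b c * D.h * D.U t u v * (D.U a b c * D.h)⁻¹ =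
        D.U a b c * (D.h * D.U t u v * D.h⁻¹) * (D.U a b c)⁻¹ := by group
    rw [h1, D.h_conj]
    exact D.Us.mul_mem (D.Us.mul_mem (D.U_mem _ _ _) (D.U_mem _ _ _)) (D.Us.inv_mem (D.U_mem _ _ _))

theorem C1_arith1 : ∀ w : ZMod 3, -0 + -0 = (0 : ZMod 3) ∧
    (0 + (-0 - 0 * 0) - -0 * -0 = (0 : ZMod 3)) ∧
    (-w + (-w - 0 * 0 - 2 * 0 ^ 2 * 0) - 0 * -0 + -0 * -0 * -0 - (-0) ^ 2 * -0 = w) := by
  decide

theorem comm_le (D : Dat G) (M : Subgroup G) [hMn : M.Normal] (hM : M ≠ ⊥) :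
    commutator G ≤ M := by
  have := D.finite
  -- (i)
  have h1 : ¬ M ≤ D.Bs := by
    intro hle
    apply hM
    rw [Subgroup.eq_bot_iff_forall]
    intro g hg
    apply D.core
    intro k
    exact hle (hMn.conj_mem g hg k)
  obtain ⟨g, hgM, hgB⟩ := SetLike.not_le_iff_exists.mp h1
  have hUB : ∀ a b c, D.U a b c ∈ M ⊔ D.Bs := fun a b c =>
    (le_sup_right : D.Bs ≤ M ⊔ D.Bs) (D.Us_le_Bs (D.U_mem a b c))
  have hhB : D.h ∈ M ⊔ D.Bs := (le_sup_right : D.Bs ≤ M ⊔ D.Bs) D.h_mem_Bs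
  have hgS : g ∈ M ⊔ D.Bs := (le_sup_left : M ≤ M ⊔ D.Bs) hgM
  have hn : D.n ∈ M ⊔ D.Bs := by
    rcases D.cover g with hB | ⟨a, b, c, a', b', c', hg | hg⟩
    · exact absurd hB hgB
    · have h2 : D.n = (D.U a b c)⁻¹ * g * (D.U a' b' c')⁻¹ := by rw [hg]; group
      rw [h2]
      exact mul_mem (mul_mem (inv_mem (hUB _ _ _)) hgS) (inv_mem (hUB _ _ _))
    · have h2 : D.n = (D.U a b c * D.h)⁻¹ * g * (D.U a' b' c')⁻¹ := by rw [hg]; group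
      rw [h2]
      exact mul_mem (mul_mem (inv_mem (mul_mem (hUB _ _ _) hhB)) hgS) (inv_mem (hUB _ _ _))
  have htop1 : M ⊔ D.Bs = ⊤ := by
    rw [eq_top_iff]
    intro x _
    rcases D.cover x with hB | ⟨a, b, c, a', b', c', hx | hx⟩
    · exact (le_sup_right : D.Bs ≤ M ⊔ D.Bs) hB
    · rw [hx]; exact mul_mem (mul_mem (hUB _ _ _) hn) (hUB _ _ _)
    · rw [hx]; exact mul_mem (mul_mem (mul_mem (hUB _ _ _) hhB) hn) (hUB _ _ _)
  -- (ii)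
  have hnorm : (M ⊔ D.Us).Normal := by
    refine ⟨fun x hx k => ?_⟩
    have hk : k ∈ (↑(M ⊔ D.Bs) : Set G) := by rw [htop1]; trivial
    rw [Subgroup.normal_mul] at hk
    obtain ⟨m, hm, β, hβ, rfl⟩ := Set.mem_mul.mp hk
    have hx' : x ∈ (↑(M ⊔ D.Us) : Set G) := hx
    rw [Subgroup.normal_mul] at hx'
    obtain ⟨m', hm', u, hu, rfl⟩ := Set.mem_mul.mp hx'
    have h2 : m * β * (m' * u) * (m * β)⁻¹ = m * ((β * m' * β⁻¹) * (β * u * β⁻¹)) * m⁻¹ := by group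
    rw [h2]
    have hmS : m ∈ M ⊔ D.Us := (le_sup_left : M ≤ M ⊔ D.Us) hm
    refine mul_mem (mul_mem hmS (mul_mem ?_ ?_)) (inv_mem hmS)
    · exact (le_sup_left : M ≤ M ⊔ D.Us) (hMn.conj_mem m' hm' β)
    · exact (le_sup_right : D.Us ≤ M ⊔ D.Us) (C1_conj_Us D hβ hu)
  have htop2 : M ⊔ D.Us = ⊤ :=
    D.gen _ hnorm (fun t u v => (le_sup_right : D.Us ≤ M ⊔ D.Us) (D.U_mem t u v))
  have hidx : M.index ∣ 27 := by
    have h2 : M.relIndex (D.Us ⊔ M) = M.relIndex D.Us := Subgroup.relIndex_sup_right _ _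
    rw [sup_comm, htop2, Subgroup.relIndex_top_right] at h2
    rw [h2, ← B_card_Us D]
    exact Subgroup.relIndex_dvd_card _ _
  have hhM : D.h ∈ M := by
    have h27 : D.h ^ 27 ∈ M := by
      obtain ⟨k, hk⟩ := hidx
      rw [hk, pow_mul]
      exact M.pow_mem (M.pow_index_mem D.h) k
    have h3 : D.h ^ 27 = D.h := by
      have h2 : D.h ^ 2 = 1 := by rw [pow_two, D.h_sq]
      calc D.h ^ 27 = (D.h ^ 2) ^ 13 * D.h := by rw [← pow_mul, ← pow_succ]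
        _ = D.h := by rw [h2, one_pow, one_mul]
    rwa [h3] at h27
  have hc : ∀ w, D.U 0 0 w ∈ M := by
    intro w
    have h2 : D.h * (D.U 0 0 w * D.h⁻¹ * (D.U 0 0 w)⁻¹) ∈ M :=
      M.mul_mem hhM (hMn.conj_mem _ (M.inv_mem hhM) _)
    have h3 : D.h * (D.U 0 0 w * D.h⁻¹ * (D.U 0 0 w)⁻¹) = D.U 0 0 w := by
      calc D.h * (D.U 0 0 w * D.h⁻¹ * (D.U 0 0 w)⁻¹)
          = (D.h * D.U 0 0 w * D.h⁻¹) * (D.U 0 0 w)⁻¹ := by group
        _ = D.U 0 0 w := by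
          rw [D.h_conj, D.U_inv, D.U_mul]
          obtain ⟨e1, e2, e3⟩ := C1_arith1 w
          rw [e1, e2, e3]
    rwa [h3] at h2
  -- (iv)
  rw [← Subgroup.Normal.quotient_commutative_iff_commutator_le]
  refine ⟨⟨fun x y => ?_⟩⟩
  have hrep : ∀ z : G ⧸ M, ∃ t u v, z = (D.U t u v : G ⧸ M) := by
    intro z
    obtain ⟨k, rfl⟩ := QuotientGroup.mk_surjective z
    have hk : k ∈ (↑(M ⊔ D.Us) : Set G) := by rw [htop2]; trivial
    rw [Subgroup.normal_mul] at hk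
    obtain ⟨m, hm, _, ⟨t, u, v, rfl⟩, rfl⟩ := Set.mem_mul.mp hk
    refine ⟨t, u, v, ?_⟩
    rw [QuotientGroup.mk_mul, (QuotientGroup.eq_one_iff m).mpr hm, one_mul]
  obtain ⟨t, u, v, rfl⟩ := hrep x
  obtain ⟨t', u', v', rfl⟩ := hrep y
  rw [← QuotientGroup.mk_mul, ← QuotientGroup.mk_mul, D.U_mul, D.U_mul]
  have key : ∀ T S V V' : ZMod 3, (D.U T S V : G ⧸ M) = (D.U T S V' : G ⧸ M) := by
    intro T S V V'
    have h2 : D.U T S V = D.U T S V' * D.U 0 0 (V - V') := by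
      rw [D.U_mul]
      congr 1 <;> ring
    rw [h2, QuotientGroup.mk_mul, (QuotientGroup.eq_one_iff _).mpr (hc _), mul_one]
  have e1 : t + t' = t' + t := add_comm _ _
  have e2 : u + u' - t * t' = u' + u - t' * t := by ring
  rw [e1, e2]
  exact key _ _ _ _

end Cfsg.Agent.Lib.Helper91.R3
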