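import Mathlib

set_option autoImplicit false

namespace Cfsg.Agent.Lib.Helper91.R3

theorem C2_card_sup_dvd {D : Type*} [Group D] [Finite D] (H N : Subgroup D) [N.Normal] :
    Nat.card (H ⊔ N : Subgroup D) ∣ Nat.card H * Nat.card N := by
  have h1 : N.relIndex (H ⊔ N) * Nat.card N = Nat.card (H ⊔ N : Subgroup D) := by
    have := Subgroup.relIndex_mul_relIndex ⊥ N (H ⊔ N) bot_le le_sup_right
    simpa [Subgroup.relIndex_bot_left, mul_comm] using this
  rw [← h1, Subgroup.relIndex_sup_right]
  exact Nat.mul_dvd_mul_right (Subgroup.relIndex_dvd_card _ _) _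

theorem C2_top_of_le {G : Type*} [Group G] (D : Subgroup G) (K : Subgroup D)
    (h : D ≤ K.map D.subtype) : K = ⊤ := by
  rw [eq_top_iff]
  intro x _
  obtain ⟨k, hk, hkx⟩ := h x.2
  have : k = x := Subtype.ext hkx
  rwa [← this]

theorem simple_of {G : Type*} [Group G] [Finite G] (b : G) (hb : b ^ 3 = 1)
    (htop : commutator G ⊔ Subgroup.zpowers b = ⊤) (hcard : Nat.card (commutator G) = 504)
    (hmin : ∀ M : Subgroup G, M.Normal → M ≠ ⊥ → commutator G ≤ M) :
    IsSimpleGroup (commutator G) := by
  classical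
  have h7p : Nat.Prime 7 := by norm_num
  have := Fact.mk h7p
  have hnt : Nontrivial (commutator G) := by
    rw [← Finite.one_lt_card_iff_nontrivial, hcard]; norm_num
  refine { exists_pair_ne := hnt.exists_pair_ne, eq_bot_or_eq_top_of_normal := ?_ }
  intro K hK
  by_contra hcon
  push Not at hcon
  obtain ⟨hKbot, hKtop⟩ := hcon
  by_cases h7 : 7 ∣ Nat.card K
  · -- Case 1
    apply hKtop
    apply C2_top_of_le
    have hidx : ¬ 7 ∣ K.index := by
      intro h
      have h1 := K.card_mul_index
      rw [hcard] at h1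
      have h2 : 7 * 7 ∣ 504 := by rw [← h1]; exact Nat.mul_dvd_mul h7 h
      norm_num at h2
    have hmemK : ∀ y : commutator G, y ^ 7 = 1 → y ∈ K := by
      intro y hy
      rw [← QuotientGroup.eq_one_iff]
      have h1 : orderOf (y : commutator G ⧸ K) ∣ 7 := by
        apply orderOf_dvd_of_pow_eq_one
        rw [← QuotientGroup.mk_pow, hy]; rfl
      have h2 : orderOf (y : commutator G ⧸ K) ∣ K.index := by
        rw [Subgroup.index_eq_card]
        exact orderOf_dvd_natCard _
      rcases (Nat.dvd_prime h7p).mp h1 with h3 | h3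
      · exact orderOf_eq_one_iff.mp h3
      · rw [h3] at h2; exact absurd h2 hidx
    set E : Subgroup G := Subgroup.normalClosure {x : G | x ∈ commutator G ∧ x ^ 7 = 1} with hE
    have hEne : E ≠ ⊥ := by
      obtain ⟨x, hx⟩ := exists_prime_orderOf_dvd_card' (G := commutator G) 7
        (by rw [hcard]; norm_num)
      intro h
      have h1 : (x : G) ∈ E := by
        apply Subgroup.subset_normalClosure
        refine ⟨x.2, ?_⟩
        have : x ^ 7 = 1 := by rw [← hx]; exact pow_orderOf_eq_one x
        exact_mod_cast congrArg Subtype.val this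
      rw [h, Subgroup.mem_bot] at h1
      have h2 : x = 1 := Subtype.ext h1
      rw [h2, orderOf_one] at hx
      norm_num at hx
    refine le_trans (hmin E Subgroup.normalClosure_normal hEne) ?_
    rw [hE, Subgroup.normalClosure, Subgroup.closure_le]
    intro y hy
    obtain ⟨a, ⟨haD, ha7⟩, hconj⟩ := Group.mem_conjugatesOfSet_iff.mp hy
    obtain ⟨c, hc⟩ := isConj_iff.mp hconj
    have hyD : y ∈ commutator G := by
      rw [← hc]
      exact (inferInstance : (commutator G).Normal).conj_mem a haD c
    have hy7 : y ^ 7 = 1 := by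
      rw [← hc, conj_pow, ha7]; group
    exact ⟨⟨y, hyD⟩, hmemK ⟨y, hyD⟩ (Subtype.ext (by simpa using hy7)), rfl⟩
  · -- Case 2
    let 𝒮 : Set (Subgroup (commutator G)) := {N | N.Normal ∧ ¬ 7 ∣ Nat.card N}
    obtain ⟨N₀, hN₀, hmax⟩ := Set.exists_max_image 𝒮 (fun N => Nat.card N) (Set.toFinite _)
      ⟨K, hK, h7⟩
    have hN₀n : N₀.Normal := hN₀.1
    have hle : ∀ N ∈ 𝒮, N ≤ N₀ := by
      intro N hN
      have hNn : N.Normal := hN.1
      have hsup : N ⊔ N₀ ∈ 𝒮 := by
        refine ⟨inferInstance, ?_⟩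
        intro h
        have h1 := h.trans (C2_card_sup_dvd N N₀)
        rcases (Nat.Prime.dvd_mul h7p).mp h1 with h2 | h2
        · exact hN.2 h2
        · exact hN₀.2 h2
      have h1 := hmax _ hsup
      have h2 : N₀ = N ⊔ N₀ := Subgroup.eq_of_le_of_card_ge le_sup_right h1
      rw [h2]
      exact le_sup_left
    have hMn : (N₀.map (commutator G).subtype).Normal := by
      refine ⟨?_⟩
      rintro _ ⟨n, hn, rfl⟩ g
      have hmem : N₀.map (MulAut.conjNormal g : MulAut (commutator G)).toMonoidHom ∈ 𝒮 := by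
        refine ⟨hN₀n.map _ (MulEquiv.surjective _), ?_⟩
        rw [Subgroup.card_map_of_injective (MulEquiv.injective _)]
        exact hN₀.2
      refine ⟨MulAut.conjNormal g n, hle _ hmem ⟨n, hn, rfl⟩, ?_⟩
      simp
    have hMne : N₀.map (commutator G).subtype ≠ ⊥ := by
      rw [Ne, Subgroup.map_eq_bot_iff_of_injective _ (Subgroup.subtype_injective _)]
      intro h
      apply hKbot
      have := hle K ⟨hK, h7⟩
      rw [h] at this
      exact le_bot_iff.mp this
    have htop' := C2_top_of_le _ N₀ (hmin _ hMn hMne)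
    apply hN₀.2
    rw [htop', Subgroup.card_top, hcard]
    norm_num

end Cfsg.Agent.Lib.Helper91.R3
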