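import Cfsg.Agent.Lib.Helper91.R3.Defs
import Cfsg.Agent.Lib.Helper91.R3.A
import Cfsg.Agent.Lib.Helper91.R3.B

set_option autoImplicit false

namespace Cfsg.Agent.Lib.Helper91.R3

variable {G : Type*} [Group G]

theorem CARD_b_cube (D : Dat G) : D.U 0 1 0 ^ 3 = 1 := by
  rw [pow_succ, pow_two, D.U_mul, D.U_mul, ← D.U_zero]
  congr 1 <;> decide

theorem card_comm (D : Dat G) : Nat.card (commutator G) = 504 := by
  have := D.finite
  have h1 : (commutator G).relIndex (Subgroup.zpowers (D.U 0 1 0) ⊔ commutator G) =
      (commutator G).relIndex (Subgroup.zpowers (D.U 0 1 0)) := Subgroup.relIndex_sup_right _ _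
  rw [sup_comm, sup_top D, Subgroup.relIndex_top_right] at h1
  have h2 : (commutator G).index ∣ 3 := by
    rw [h1]
    refine (Subgroup.relIndex_dvd_card _ _).trans ?_
    rw [Nat.card_zpowers]
    exact orderOf_dvd_of_pow_eq_one (CARD_b_cube D)
  have h3 : (commutator G).index ≠ 1 := by
    intro h
    rw [Subgroup.index_eq_one] at h
    exact not_mem_comm D (by rw [h]; trivial)
  have h4 : (commutator G).index = 3 := by
    rcases (Nat.dvd_prime Nat.prime_three).mp h2 with h | h
    · exact absurd h h3
    · exact h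
  have h5 := (commutator G).card_mul_index
  rw [h4, D.card] at h5
  omega

end Cfsg.Agent.Lib.Helper91.R3
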