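import Mathlib

/-!
# The `(B,N)`-normal form of `²G₂(3)` (ladder R3, statement S1075)

`Dat G` records the parametrisation of `U` (order 27), the involution `h` of the torus and the Weyl
element `n` in a group `G` of order 1512, with the facts needed to show that the commutator subgroup
is simple of order 504.
-/

set_option autoImplicit false

namespace Cfsg.Agent.Lib.Helper91.R3

/-- the `(B,N)`-normal form data of `²G₂(3)` -/
structure Dat (G : Type*) [Group G] where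
  U : ZMod 3 → ZMod 3 → ZMod 3 → G
  h : G
  n : G
  U_mul : ∀ t u v t' u' v', U t u v * U t' u' v' =
    U (t + t') (u + u' - t * t') (v + v' - u * t' + t * t' * t' - t ^ 2 * t')
  U_inj : ∀ t u v t' u' v', U t u v = U t' u' v' → t = t' ∧ u = u' ∧ v = v'
  h_sq : h * h = 1
  h_conj : ∀ t u v, h * U t u v * h⁻¹ = U (-t) u (-v)
  gen : ∀ N : Subgroup G, N.Normal → (∀ t u v, U t u v ∈ N) → N = ⊤
  ti : ∀ g t u v t' u' v', g * U t u v * g⁻¹ = U t' u' v' → U t u v ≠ 1 →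
    ∃ a b c, g = U a b c ∨ g = U a b c * h
  cover : ∀ g, (∃ a b c, g = U a b c ∨ g = U a b c * h) ∨
    ∃ a b c a' b' c', g = U a b c * n * U a' b' c' ∨ g = U a b c * h * n * U a' b' c'
  core : ∀ g, (∀ k, ∃ a b c, k * g * k⁻¹ = U a b c ∨ k * g * k⁻¹ = U a b c * h) → g = 1
  card : Nat.card G = 1512

namespace Dat

variable {G : Type*} [Group G] (D : Dat G)

include D in
theorem finite : Finite G := Nat.finite_of_card_ne_zero (by rw [D.card]; norm_num)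

theorem U_zero : D.U 0 0 0 = 1 := by
  have h := D.U_mul 0 0 0 0 0 0
  simp only [add_zero, mul_zero, sub_zero] at h
  exact mul_eq_left.1 h

theorem U_inv (t u v : ZMod 3) :
    (D.U t u v)⁻¹ = D.U (-t) (-u - t * t) (-v - u * t - 2 * t ^ 2 * t) := by
  rw [inv_eq_iff_mul_eq_one, D.U_mul, ← D.U_zero]
  congr 1 <;> ring

theorem h_inv : D.h⁻¹ = D.h := inv_eq_of_mul_eq_one_left D.h_sq

theorem h_mul_U (t u v : ZMod 3) : D.h * D.U t u v = D.U (-t) u (-v) * D.h := by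
  rw [← D.h_conj, inv_mul_cancel_right]

/-- the subgroup `U` of order 27 -/
def Us : Subgroup G where
  carrier := {g | ∃ t u v, g = D.U t u v}
  mul_mem' := by
    rintro _ _ ⟨t, u, v, rfl⟩ ⟨t', u', v', rfl⟩
    exact ⟨_, _, _, D.U_mul _ _ _ _ _ _⟩
  one_mem' := ⟨0, 0, 0, D.U_zero.symm⟩
  inv_mem' := by
    rintro _ ⟨t, u, v, rfl⟩
    exact ⟨_, _, _, D.U_inv _ _ _⟩

theorem mem_Us {g : G} : g ∈ D.Us ↔ ∃ t u v, g = D.U t u v := Iff.rfl

theorem U_mem (t u v : ZMod 3) : D.U t u v ∈ D.Us := ⟨t, u, v, rfl⟩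

/-- the subgroup `B = U ⟨h⟩` of order 54 -/
def Bs : Subgroup G where
  carrier := {g | ∃ a b c, g = D.U a b c ∨ g = D.U a b c * D.h}
  mul_mem' := by
    rintro _ _ ⟨t, u, v, rfl | rfl⟩ ⟨t', u', v', rfl | rfl⟩
    · exact ⟨_, _, _, Or.inl (D.U_mul _ _ _ _ _ _)⟩
    · exact ⟨_, _, _, Or.inr (by rw [← mul_assoc, D.U_mul])⟩
    · exact ⟨_, _, _, Or.inr (by rw [mul_assoc, D.h_mul_U, ← mul_assoc, D.U_mul])⟩
    · exact ⟨_, _, _, Or.inl (by
        rw [mul_assoc, ← mul_assoc D.h, D.h_mul_U, mul_assoc, D.h_sq, mul_one, D.U_mul])⟩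
  one_mem' := ⟨0, 0, 0, Or.inl D.U_zero.symm⟩
  inv_mem' := by
    rintro _ ⟨t, u, v, rfl | rfl⟩
    · exact ⟨_, _, _, Or.inl (D.U_inv _ _ _)⟩
    · exact ⟨_, _, _, Or.inr (by rw [mul_inv_rev, D.h_inv, D.U_inv, D.h_mul_U])⟩

theorem mem_Bs {g : G} : g ∈ D.Bs ↔ ∃ a b c, g = D.U a b c ∨ g = D.U a b c * D.h := Iff.rfl

theorem Us_le_Bs : D.Us ≤ D.Bs := by
  rintro _ ⟨t, u, v, rfl⟩
  exact ⟨t, u, v, Or.inl rfl⟩

theorem h_mem_Bs : D.h ∈ D.Bs := ⟨0, 0, 0, Or.inr (by rw [D.U_zero, one_mul])⟩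

end Dat

end Cfsg.Agent.Lib.Helper91.R3
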