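import Cfsg.Agent.Lib.Helper91.R3.Defs
import Cfsg.Agent.Lib.Helper8.ReeInst
import Cfsg.Agent.Lib.Helper22.Ree15

/-!
# `²G₂(3)` satisfies `R3.Dat`

Everything is done over an abstract field `K` with a ring isomorphism `e : ZMod 3 ≃+* K`
(this keeps the elaborator from evaluating in the concrete field).
-/

set_option autoImplicit false
set_option maxRecDepth 100000
set_option linter.unusedSectionVars false

namespace Cfsg.Agent.Lib.Helper91.R3
open Cfsg.Lie Matrix Cfsg.Agent.Lib.Helper23 Cfsg.Agent.Lib.Helper45 Cfsg.Agent.Lib.Helper22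
  Cfsg.Agent.Lib.Helper8

theorem inst_three (x : ZMod 3) : x = 0 ∨ x = 1 ∨ x = -1 := by
  revert x
  decide

section sigma
variable {K : Type*} [Field K] [CharP K 3] [Fintype K] (e : ZMod 3 ≃+* K)

include e in
theorem inst_cases (x : K) : x = 0 ∨ x = 1 ∨ x = -1 := by
  have hx : x = e (e.symm x) := (e.apply_symm_apply x).symm
  rcases inst_three (e.symm x) with h | h | h
  · left; rw [hx, h, map_zero]
  · right; left; rw [hx, h, map_one]
  · right; right; rw [hx, h, map_neg, map_one]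

include e in
theorem inst_units (z : Kˣ) : z = 1 ∨ z = -1 := by
  rcases inst_cases e (z : K) with h | h | h
  · exact absurd h z.ne_zero
  · left; exact Units.ext h
  · right; exact Units.ext (by simpa using h)

include e in
theorem inst_psi (x : K) : reePs K 0 x = x := by
  rcases inst_cases e x with h | h | h
  · rw [h, map_zero]
  · rw [h, map_one]
  · rw [h, map_neg, map_one]

variable (hK : Fintype.card K = 3 ^ (2 * 0 + 1))
  (b : Bundle chevG2 K) (α : ↥(chevG2.group K) ≃* ↥(chevG2.group K))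
  (hα : ∀ r < 12, ∀ t : K,
    (α ⟨b.hA.X r t, b.hA.X_mem_group r t⟩ : GL chevG2.Idx K) = b.hA.X (isoRhoG2 r) (t ^ isoLamG2 r))

include e hα in
/-- elements of `B¹` -/
theorem inst_borel {x : GL chevG2.Idx K} (hx : x ∈ chevG2.borelSubgroup K)
    (hx1 : x ∈ twistedG2 K (3 ^ 0)) :
    ∃ t u v : ZMod 3, x = reeU b.hA 0 (e t) (e u) (e v) ∨
      x = reeU b.hA 0 (e t) (e u) (e v) * (reeHG hK b (-1) : GL chevG2.Idx K) := by
  obtain ⟨u, hu, hu1, h, hh, hh1, rfl⟩ := ree_B1_split hK b α hα hx hx1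
  obtain ⟨t, u', v, rfl⟩ := (mem_reeU1_iff hK b α hα _).1 ⟨hu, hu1⟩
  obtain ⟨y, hy, rfl⟩ := (mem_reeH1_iff hK b α hα _).1 ⟨hh, hh1⟩
  obtain ⟨z, hz⟩ := exists_reeHG hK b hy
  refine ⟨e.symm t, e.symm u', e.symm v, ?_⟩
  simp only [RingEquiv.apply_symm_apply]
  rcases inst_units e z with rfl | rfl
  · left
    rw [hz, map_one]
    simp
  · right
    rw [hz]

theorem inst_borel_mem (t u v : K) :
    reeU b.hA 0 t u v ∈ chevG2.borelSubgroup K ∧
      reeU b.hA 0 t u v * (reeHG hK b (-1) : GL chevG2.Idx K) ∈ chevG2.borelSubgroup K := by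
  have hS := sharpBN_of_mem K (D := chevG2) (by simp)
  refine ⟨hS.U_le (reeU_mem_pos b.hA _ t u v), ?_⟩
  rw [reeHG_val]
  exact mul_mem (hS.U_le (reeU_mem_pos b.hA _ t u v))
    (hS.H_le_B (reeH_mem_diag b.hA (reeWt K 0 (-1)).ne_zero))

include e hK hα in
theorem inst_U1 {x : GL chevG2.Idx K} (hx : x ∈ chevG2.posUnipotent K)
    (hx1 : x ∈ twistedG2 K (3 ^ 0)) :
    ∃ t u v : ZMod 3, x = reeU b.hA 0 (e t) (e u) (e v) := by
  obtain ⟨t, u, v, rfl⟩ := (mem_reeU1_iff hK b α hα _).1 ⟨hx, hx1⟩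
  exact ⟨e.symm t, e.symm u, e.symm v, by simp only [RingEquiv.apply_symm_apply]⟩

include hK hα in
theorem inst_card : Nat.card ↥(twistedG2 K (3 ^ 0)) = 1512 := by
  rw [card_ree hK b α hα]
  norm_num

/-- `²G₂(3)` as an instance of `Dat`. -/
noncomputable def instDat : Dat ↥(twistedG2 K (3 ^ 0)) where
  U t u v := ⟨reeU b.hA 0 (e t) (e u) (e v), reeU_mem' b.hA 0 _ _ _⟩
  h := reeHG hK b (-1)
  n := ⟨b.hA.nword reeOm, ree_n0_mem b.hA 0⟩
  U_mul t u v t' u' v' := by
    apply Subtype.ext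
    have h := reeU_mul b.hA hK (e t) (e u) (e v) (e t') (e u') (e v')
    rw [inst_psi e] at h
    simp only [map_add, map_sub, map_mul, map_pow]
    exact h
  U_inj t u v t' u' v' h := by
    obtain ⟨h1, h2, h3⟩ := reeU_inj b (congrArg Subtype.val h)
    exact ⟨e.injective h1, e.injective h2, e.injective h3⟩
  h_sq := by
    rw [← map_mul]
    simp
  h_conj t u v := by
    apply Subtype.ext
    have h := reeH_conj_reeU hK b α hα (reeWt K 0 (-1)).ne_zero (e t) (e u) (e v)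
    have c6 : hhChi (reeTh K 0 (reeWt K 0 (-1) : Kˣ)) ((reeWt K 0 (-1) : Kˣ) : K) 6 * e t = e (-t) := by
      rw [chi6_wt hK]
      simp
    have c10 : hhChi (reeTh K 0 (reeWt K 0 (-1) : Kˣ)) ((reeWt K 0 (-1) : Kˣ) : K) 10 * e u = e u := by
      rw [chi10_wt hK, inst_psi e]
      simp
    have cv : ((reeWt K 0 (-1) : Kˣ) : K) * e v = e (-v) := by
      rw [reeWt_val, inst_psi e]
      simp
    rw [c6, c10, cv] at h
    exact h
  gen N hN hU := by
    rw [eq_top_iff]
    rintro ⟨g, hg⟩ -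
    have key : twistedG2 K (3 ^ 0) ≤ N.map (twistedG2 K (3 ^ 0)).subtype := by
      conv_lhs => rw [twistedG2_eq b.hA]
      rw [Subgroup.closure_le]
      rintro g (⟨t, u, v, rfl⟩ | ⟨t, u, v, rfl⟩)
      · have h0 := hU (e.symm t) (e.symm u) (e.symm v)
        simp only [RingEquiv.apply_symm_apply] at h0
        exact ⟨_, h0, rfl⟩
      · set y := b.hA.W (reeW 4 5 3 2 1 0 (-1) (reeTh K 0) t u v) with hy
        set n0 := b.hA.nword reeOm with hn0
        have hz : n0⁻¹ * y * n0 ∈ chevG2.posUnipotent K := ree_conj_neg b rfl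
        have hn1 : n0 ∈ twistedG2 K (3 ^ 0) := ree_n0_mem b.hA 0
        have hz1 : n0⁻¹ * y * n0 ∈ twistedG2 K (3 ^ 0) :=
          mul_mem (mul_mem (inv_mem hn1) (reeV_mem b.hA 0 t u v)) hn1
        obtain ⟨t', u', v', e'⟩ := inst_U1 e hK b α hα hz hz1
        have h1 := hN.conj_mem _ (hU t' u' v') ⟨n0, hn1⟩
        refine ⟨_, h1, ?_⟩
        change n0 * reeU b.hA 0 (e t') (e u') (e v') * n0⁻¹ = y
        rw [← e']
        group
    obtain ⟨x, hx, e'⟩ := key hg
    have : x = ⟨g, hg⟩ := Subtype.ext e'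
    rwa [← this]
  ti := by
    rintro ⟨g, hg⟩ t u v t' u' v' e' hne
    have e'' : g * reeU b.hA 0 (e t) (e u) (e v) * g⁻¹ = reeU b.hA 0 (e t') (e u') (e v') :=
      congrArg Subtype.val e'
    rcases ree_TI hK b α hα hg with h | h
    · obtain ⟨a, b', c, h1 | h1⟩ := inst_borel e hK b α hα h hg
      · exact ⟨a, b', c, Or.inl (Subtype.ext h1)⟩
      · exact ⟨a, b', c, Or.inr (Subtype.ext h1)⟩
    · exfalso
      apply hne
      apply Subtype.ext
      exact h _ (reeU_mem_pos b.hA _ _ _ _) (reeU_mem' b.hA 0 _ _ _)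
        (by rw [e'']; exact reeU_mem_pos b.hA _ _ _ _)
  cover := by
    rintro ⟨g, hg1⟩
    rcases ree_cover hK b α hα hg1 with h | ⟨x, hx, hx1, u, hu, hu1, e'⟩
    · left
      obtain ⟨a, b', c, h1 | h1⟩ := inst_borel e hK b α hα h hg1
      · exact ⟨a, b', c, Or.inl (Subtype.ext h1)⟩
      · exact ⟨a, b', c, Or.inr (Subtype.ext h1)⟩
    · right
      obtain ⟨t', u', v', rfl⟩ := inst_U1 e hK b α hα hu hu1
      obtain ⟨a, b', c, rfl | rfl⟩ := inst_borel e hK b α hα hx hx1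
      · exact ⟨a, b', c, t', u', v', Or.inl (Subtype.ext e')⟩
      · exact ⟨a, b', c, t', u', v', Or.inr (Subtype.ext e')⟩
  core := by
    rintro ⟨g, hg⟩ hall
    apply Subtype.ext
    refine ree_core hK b α hα hg fun k hk => ?_
    obtain ⟨a, b', c, h1 | h1⟩ := hall ⟨k, hk⟩
    · have h2 : k * g * k⁻¹ = reeU b.hA 0 (e a) (e b') (e c) := congrArg Subtype.val h1
      rw [h2]
      exact (inst_borel_mem hK b _ _ _).1
    · have h2 : k * g * k⁻¹ = reeU b.hA 0 (e a) (e b') (e c) * (reeHG hK b (-1) : GL chevG2.Idx K) :=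
        congrArg Subtype.val h1
      rw [h2]
      exact (inst_borel_mem hK b _ _ _).2
  card := inst_card hK b α hα

include e in
theorem exists_datK (hK : Fintype.card K = 3 ^ (2 * 0 + 1)) : Nonempty (Dat ↥(twistedG2 K (3 ^ 0))) := by
  have b := bundle_of_mem K (D := chevG2) (by simp)
  obtain ⟨α, hα⟩ := exists_isogG2 (cube_surj hK) b.hA
  exact ⟨instDat e hK b α hα⟩

end sigma

theorem exists_dat : Nonempty (Dat ↥(Cfsg.Lie.twistedG2 (ZMod 3) 1)) := by
  have hK : Fintype.card (ZMod 3) = 3 ^ (2 * 0 + 1) := by simp [ZMod.card]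
  have h := exists_datK (RingEquiv.refl (ZMod 3)) hK
  rwa [pow_zero] at h

end Cfsg.Agent.Lib.Helper91.R3
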